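import Cfsg.Agent.Lib.OrthEightTwo.Packed

/-! The reflections on the labels. -/

set_option autoImplicit false

namespace CfsgLib.OrthEightTwo

open CfsgLib.SpSixTwo

/-- the test for one pair -/
def labB (c d : Fin 120) : Bool :=
  let nc := labTab.getD c.val 0
  let nd := labTab.getD d.val 0
  let nk := labTab.getD (tC c d).val 0
  let p := polN nc nd
  (List.range 8).all fun i => Nat.beq ((nk / 2 ^ i + nd / 2 ^ i + p * (nc / 2 ^ i)) % 2) 0

/-- the test for one pair, on numbers -/
def labN (c d : ℕ) : Bool :=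
  Nat.beq (labP (tN c d))
    (cond (Nat.beq (polN (labP c) (labP d)) 0) (labP d) (Nat.xor (labP c) (labP d)))

theorem labN_all : allB 120 (fun c => allB 120 (labN c)) = true := by decide +kernel

theorem labB_all (c d : Fin 120) : labB c d = true := by
  have h := Nat.eq_of_beq_eq_true (allB_spec (allB_spec labN_all c.val c.isLt) d.val d.isLt)
  simp only [labB, List.all_eq_true, List.mem_range]
  rw [lab_pack c, lab_pack d, lab_pack (tC c d), tC_val]
  intro i _
  rw [h]
  have hp : polN (labP c.val) (labP d.val) < 2 := Nat.mod_lt _ (by norm_num)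
  refine (congrArg (Nat.beq · 0) ?_).trans (Nat.beq_refl 0)
  rcases Nat.lt_succ_iff_lt_or_eq.1 hp with hp | hp
  · rw [Nat.lt_one_iff.1 hp]
    simp only [show Nat.beq 0 0 = true from rfl, cond_true, zero_mul, add_zero]
    omega
  · rw [hp]
    simp only [show Nat.beq 1 0 = false from rfl, cond_false, one_mul]
    have e : (labP c.val ^^^ labP d.val) / 2 ^ i % 2 =
        (labP c.val / 2 ^ i + labP d.val / 2 ^ i) % 2 := by
      rw [← Nat.shiftRight_eq_div_pow, Nat.shiftRight_xor_distrib, Nat.shiftRight_eq_div_pow,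
        Nat.shiftRight_eq_div_pow, ← pow_one 2, Nat.xor_mod_two_pow, pow_one, Nat.add_mod]
      rcases Nat.mod_two_eq_zero_or_one (labP c.val / 2 ^ i) with h1 | h1 <;>
        rcases Nat.mod_two_eq_zero_or_one (labP d.val / 2 ^ i) with h2 | h2 <;>
        rw [h1, h2] <;> rfl
    change ((labP c.val ^^^ labP d.val) / 2 ^ i + labP d.val / 2 ^ i + labP c.val / 2 ^ i) % 2 = 0
    omega

theorem lab_refl (c d : Fin 120) (i : Fin 4) :
    lab (tC c d) (Sum.inl i) = lab d (Sum.inl i) + p2 (lab c) (lab d) * lab c (Sum.inl i) ∧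
    lab (tC c d) (Sum.inr i) = lab d (Sum.inr i) + p2 (lab c) (lab d) * lab c (Sum.inr i) := by
  have h := labB_all c d
  simp only [labB, List.all_eq_true, List.mem_range] at h
  have h2 : ∀ x y z : ZMod 2, x + y + z = 0 → x = y + z := by decide
  constructor
  · have e := congrArg (Nat.cast : ℕ → ZMod 2) (Nat.eq_of_beq_eq_true (h i.val (by omega)))
    simp only [ZMod.natCast_mod, Nat.cast_add, Nat.cast_mul, Nat.cast_zero] at e
    simp only [lab, p2_bits]
    exact h2 _ _ _ e
  · have e := congrArg (Nat.cast : ℕ → ZMod 2) (Nat.eq_of_beq_eq_true (h (i.val + 4) (by omega)))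
    simp only [ZMod.natCast_mod, Nat.cast_add, Nat.cast_mul, Nat.cast_zero] at e
    simp only [lab, p2_bits]
    exact h2 _ _ _ e

end CfsgLib.OrthEightTwo
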