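import Cfsg.Agent.Lib.OrthEightTwo.Packed

/-! The reflections on the roots. -/

set_option autoImplicit false

namespace CfsgLib.OrthEightTwo

open CfsgLib.SpSixTwo

/-- the test for one pair, with the coefficient `m` and the sign `e` -/
def reflOkB (rc rd rk m e : ℕ) : Bool :=
  (List.range 8).all fun i => Nat.beq ((dig rd i + m * dig rc i + e * dig rk i) % 3) 0

/-- the test for one pair -/
def rootB (c d : Fin 120) : Bool :=
  let rc := rootTab.getD c.val 0
  let rd := rootTab.getD d.val 0
  let rk := rootTab.getD (tC c d).val 0
  let m := 2 * dotN rc rd % 3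
  reflOkB rc rd rk m 2 || reflOkB rc rd rk m 1

/-- the test for one pair, on numbers -/
def rootN (c d : ℕ) : Bool :=
  let rc := rootP c
  let rd := rootP d
  let rk := rootP (tN c d)
  let m := 2 * dotN rc rd % 3
  reflOkB rc rd rk m 2 || reflOkB rc rd rk m 1

theorem rootN_all : allB 120 (fun c => allB 120 (rootN c)) = true := by decide +kernel

theorem rootB_all (c d : Fin 120) : rootB c d = true := by
  have h := allB_spec (allB_spec rootN_all c.val c.isLt) d.val d.isLt
  simp only [rootN] at h
  simp only [rootB]
  rw [root_pack c, root_pack d, root_pack (tC c d), tC_val]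
  exact h

theorem root_refl (c d : Fin 120) :
    (∀ i, root d i + -dot8 (root c) (root d) * root c i = root (tC c d) i) ∨
    (∀ i, root d i + -dot8 (root c) (root d) * root c i = -root (tC c d) i) := by
  have h := rootB_all c d
  simp only [rootB, reflOkB, Bool.or_eq_true, List.all_eq_true, List.mem_range] at h
  have h3 : (3 : K) = 0 := by decide
  refine h.imp (fun h i => ?_) (fun h i => ?_) <;>
  · have e := congrArg (Nat.cast : ℕ → K) (Nat.eq_of_beq_eq_true (h i.val i.isLt))
    simp only [ZMod.natCast_mod, Nat.cast_add, Nat.cast_mul, Nat.cast_ofNat, Nat.cast_zero, Nat.cast_one,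
      ← root_eq, ← dot8_root] at e
    first
      | linear_combination e - (dot8 (root c) (root d) * root c i) * h3
      | linear_combination e - (dot8 (root c) (root d) * root c i + root (tC c d) i) * h3

end CfsgLib.OrthEightTwo
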