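import Cfsg.Agent.Lib.OrthEightTwo.CheckRoots
import Cfsg.Agent.Lib.OrthEightTwo.CheckLabels
import Mathlib.Data.List.GetD

/-! The checks of the tables. -/

set_option autoImplicit false

namespace CfsgLib.OrthEightTwo

open CfsgLib.SpSixTwo

theorem root_norm : ∀ c : Fin 120, dot8 (root c) (root c) = -1 := by decide +kernel

theorem lab_q : ∀ c : Fin 120, q2 (lab c) = 1 := by decide +kernel

theorem lab_nodup : labTab.Nodup ∧ labTab.length = 120 := by decide +kernel

theorem lab_inj (c d : Fin 120) (h : labTab.getD c.val 0 = labTab.getD d.val 0) : c = d := by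
  have hl := lab_nodup.2
  rw [List.getD_eq_getElem _ _ (by omega), List.getD_eq_getElem _ _ (by omega), lab_nodup.1.getElem_inj_iff] at h
  exact Fin.ext h

theorem lab_code : ∀ c : Fin 120, code (lab c) = labTab.getD c.val 0 := by decide +kernel

theorem lab_surj : ∀ n : Fin 256, q2 (bitsV n.val) = 1 → ∃ c : Fin 120, labTab.getD c.val 0 = n.val := by
  decide +kernel

theorem simp8_span : ∀ k i : Fin 8, (∑ j, coef k j * root (simp8 j) i) = if i = k then 1 else 0 := by
  decide +kernel

theorem edge_sum : ∀ e : Fin 7, ∃ s t : K, s ≠ 0 ∧ t ≠ 0 ∧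
    ∀ i, root (edgeSum e) i = s * root (simp8 (edge8 e).1) i + t * root (simp8 (edge8 e).2) i := by
  decide +kernel

theorem middleN : ∀ c d : Fin 120,
    polN (labTab.getD c.val 0) (labTab.getD d.val 0) = 1 ∨
    labTab.any (fun n => Nat.beq (polN (labTab.getD c.val 0) n) 1 && Nat.beq (polN n (labTab.getD d.val 0)) 1) = true := by
  decide +kernel

theorem middle (c d : Fin 120) : p2 (lab c) (lab d) ≠ 0 ∨
    ∃ e : Fin 120, p2 (lab c) (lab e) ≠ 0 ∧ p2 (lab e) (lab d) ≠ 0 := by
  have key : ∀ a b : Fin 120, polN (labTab.getD a.val 0) (labTab.getD b.val 0) = 1 → p2 (lab a) (lab b) ≠ 0 := by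
    intro a b h
    rw [lab, lab, p2_bits, h, Nat.cast_one]
    exact one_ne_zero
  refine (middleN c d).imp (key c d) fun h => ?_
  obtain ⟨n, hn, h⟩ := List.any_eq_true.1 h
  simp only [Bool.and_eq_true] at h
  obtain ⟨i, hi, rfl⟩ := List.mem_iff_getElem.1 hn
  have hi' : i < 120 := lab_nodup.2 ▸ hi
  refine ⟨⟨i, hi'⟩, key _ _ ?_, key _ _ ?_⟩
  · simp only [List.getD_eq_getElem _ _ hi]; exact Nat.eq_of_beq_eq_true h.1
  · simp only [List.getD_eq_getElem _ _ hi]; exact Nat.eq_of_beq_eq_true h.2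

end CfsgLib.OrthEightTwo
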