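import Cfsg.Agent.Lib.OrthEightTwo.Checks
import Cfsg.Agent.Lib.ChevOrtho.D4
import Cfsg.Agent.Lib.ClassicalForms.Ortho.Index

/-!
The fourfold cover of the orthogonal group of plus type and degree eight over two elements.
-/

set_option autoImplicit false
set_option linter.unusedSectionVars false

namespace CfsgLib.OrthEightTwo

open CfsgLib.SpSixTwo CfsgLib.ClassicalForms QuadraticMap
open scoped commutatorElement

/-- the index type of the coordinates -/
abbrev Ix := Fin 4 ⊕ Fin 4

theorem tab_bound : ∀ c : Fin 120, labTab.getD c.val 0 < 256 := by decide +kernel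

theorem root_injN : ∀ c d : Fin 120, c = d ∨
    (!((List.range 8).all (fun i => Nat.beq (dig (rootTab.getD c.val 0) i) (dig (rootTab.getD d.val 0) i)) ||
      (List.range 8).all (fun i => Nat.beq ((dig (rootTab.getD c.val 0) i + dig (rootTab.getD d.val 0) i) % 3) 0))) = true := by
  decide +kernel

theorem root_inj (c d : Fin 120) (h : (∀ i, root c i = root d i) ∨ (∀ i, root c i = -root d i)) : c = d := by
  rcases root_injN c d with e | e
  · exact e
  exfalso
  simp only [Bool.not_eq_true', Bool.or_eq_false_iff] at e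
  have hlt : ∀ n i : ℕ, dig n i < 3 := fun n i => Nat.mod_lt _ (by norm_num)
  rcases h with h | h
  · refine Bool.eq_false_iff.1 e.1 (List.all_eq_true.2 fun i hi => ?_)
    have := h ⟨i, List.mem_range.1 hi⟩
    rw [root_eq, root_eq, ZMod.natCast_eq_natCast_iff', Nat.mod_eq_of_lt (hlt _ _), Nat.mod_eq_of_lt (hlt _ _)] at this
    rw [this]; exact Nat.beq_refl _
  · refine Bool.eq_false_iff.1 e.2 (List.all_eq_true.2 fun i hi => ?_)
    have := h ⟨i, List.mem_range.1 hi⟩
    rw [root_eq, root_eq, eq_neg_iff_add_eq_zero, ← Nat.cast_add, ZMod.natCast_eq_zero_iff] at this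
    exact (congrArg (Nat.beq · 0) (Nat.mod_eq_zero_of_dvd this)).trans rfl

theorem edge_indep : ∀ e : Fin 7, ∀ a b : K,
    (∀ i, a * root (simp8 (edge8 e).1) i + b * root (simp8 (edge8 e).2) i = 0) → a = 0 ∧ b = 0 := by
  decide +kernel

theorem bas_split : ∀ s : Fin 4,
    (∃ c d : Fin 120, ∀ i : Fin 4, lab c (Sum.inl i) + lab d (Sum.inl i) = (if i = s then 1 else 0) ∧
      lab c (Sum.inr i) + lab d (Sum.inr i) = 0) ∧
    (∃ c d : Fin 120, ∀ i : Fin 4, lab c (Sum.inr i) + lab d (Sum.inr i) = (if i = s then 1 else 0) ∧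
      lab c (Sum.inl i) + lab d (Sum.inl i) = 0) := by decide +kernel

theorem four_idx : ∀ s t : Ix, ∃ k : Fin 4, (Sum.inl k : Ix) ≠ s ∧ (Sum.inr k : Ix) ≠ s ∧
    (Sum.inl k : Ix) ≠ t ∧ (Sum.inr k : Ix) ≠ t := by decide +kernel

variable {F : Type*} [Field F] (φ : ZMod 2 →+* F)

/-- the vector of an index -/
def vec (c : Fin 120) : Ix → F := fun k => φ (lab c k)

theorem polar_eq (x y : Ix → F) : polar (qPlus 4 F) x y =
    ∑ i : Fin 4, (x (Sum.inl i) * y (Sum.inr i) + x (Sum.inr i) * y (Sum.inl i)) := by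
  rw [polar, qPlus_apply, qPlus_apply, qPlus_apply]
  simp only [Cfsg.quadFormPlus, ← Finset.sum_sub_distrib, Pi.add_apply]
  exact Finset.sum_congr rfl fun i _ => by ring

theorem q_map (v : Fin 4 ⊕ Fin 4 → ZMod 2) : qPlus 4 F (fun k => φ (v k)) = φ (q2 v) := by
  simp [qPlus_apply, Cfsg.quadFormPlus, q2, map_sum]

theorem q_vec (c : Fin 120) : qPlus 4 F (vec φ c) = 1 := by
  unfold vec
  rw [q_map, lab_q, map_one]

theorem q_vec_ne (c : Fin 120) : qPlus 4 F (vec φ c) ≠ 0 := by rw [q_vec]; exact one_ne_zero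

theorem polar_vec (c d : Fin 120) : polar (qPlus 4 F) (vec φ c) (vec φ d) = φ (p2 (lab c) (lab d)) := by
  simp [polar_eq, vec, p2, map_sum]

/-- the reflection -/
noncomputable def R (c : Fin 120) : orth (qPlus 4 F) := refl (qPlus 4 F) (vec φ c) (q_vec_ne φ c)

variable (hφ : Function.Surjective φ)
include hφ

theorem two_zero : (1 : F) + 1 = 0 := by
  rw [← map_one φ, ← map_add, show (1 + 1 : ZMod 2) = 0 by decide, map_zero]

theorem neg_eq (x : F) : -x = x := by linear_combination (-x) * two_zero φ hφ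

theorem vec_inj {c d : Fin 120} (h : vec φ c = vec φ d) : c = d := by
  refine lab_inj c d ?_
  rw [← lab_code c, ← lab_code d, show lab c = lab d from funext fun k => φ.injective (congrFun h k)]

theorem R_vec (c d : Fin 120) :
    (R φ c : (Ix → F) ≃ₗ[F] (Ix → F)) (vec φ d) = vec φ (tC c d) := by
  rw [R, refl_apply, q_vec, inv_one, one_mul, polar_comm, polar_vec]
  funext k
  rcases k with i | i
  · simp [vec, (lab_refl c d i).1, sub_eq_add_neg, neg_eq φ hφ]
  · simp [vec, (lab_refl c d i).2, sub_eq_add_neg, neg_eq φ hφ]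

theorem exists_vec {v : Ix → F} (hv : qPlus 4 F v ≠ 0) : ∃ c, vec φ c = v := by
  choose w hw using fun k => hφ (v k)
  have hw' : (fun k => φ (w k)) = v := funext hw
  have h1 : q2 w = 1 := by
    rcases (show ∀ z : ZMod 2, z = 0 ∨ z = 1 by decide) (q2 w) with h | h
    · exact absurd (by rw [← hw', q_map, h, map_zero]) hv
    · exact h
  obtain ⟨c, hc⟩ := lab_surj ⟨code w, code_lt w⟩ (by rw [bitsV_code]; exact h1)
  exact ⟨c, funext fun k => by rw [vec, lab, hc, bitsV_code, hw]⟩

omit hφ in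
/-- the block of a root -/
def rA (c : Fin 120) : M8 := blockA (root c)

omit hφ in
/-- the other block of a root -/
def rB (c : Fin 120) : M8 := blockB (root c)

omit hφ in
theorem rA_rB (c : Fin 120) : rA c * rB c = 1 := AB_eq_one (root_norm c)

omit hφ in
theorem rB_rA (c : Fin 120) : rB c * rA c = 1 := BA_eq_one (root_norm c)

omit hφ in
/-- the first half of a pair -/
def pairU (c d : Fin 120) : M8ˣ where
  val := rA c * rB d
  inv := rA d * rB c
  val_inv := by rw [mul_assoc, ← mul_assoc (rB d), rB_rA, one_mul, rA_rB]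
  inv_val := by rw [mul_assoc, ← mul_assoc (rB c), rB_rA, one_mul, rA_rB]

omit hφ in
/-- the second half of a pair -/
def pairW (c d : Fin 120) : M8ˣ where
  val := rB c * rA d
  inv := rB d * rA c
  val_inv := by rw [mul_assoc, ← mul_assoc (rA d), rA_rB, one_mul, rB_rA]
  inv_val := by rw [mul_assoc, ← mul_assoc (rA c), rA_rB, one_mul, rB_rA]

omit hφ in
/-- The ambient group. -/
abbrev Amb (F : Type*) [Field F] := (M8ˣ × M8ˣ) × orth (qPlus 4 F)

omit hφ in
/-- a generator -/
noncomputable def gen (c d : Fin 120) : Amb F := ((pairU c d, pairW c d), R φ c * R φ d)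

omit hφ in
/-- The cover. -/
noncomputable def cover : Subgroup (Amb F) := Subgroup.closure {p | ∃ c d, p = gen φ c d}

omit hφ in
/-- the projection -/
noncomputable def proj : cover φ →* orth (qPlus 4 F) := (MonoidHom.snd _ _).comp (cover φ).subtype

omit hφ in
theorem blockA_neg (v : Fin 8 → K) : blockA (fun i => -v i) = -blockA v := by
  simp only [blockA]
  rw [show (fun i : Fin 7 => -v i.castSucc) = fun i => -(fun j : Fin 7 => v j.castSucc) i from rfl, G_neg]
  module

omit hφ in
theorem blockB_neg (v : Fin 8 → K) : blockB (fun i => -v i) = -blockB v := by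
  simp only [blockB]
  rw [show (fun i : Fin 7 => -v i.castSucc) = fun i => -(fun j : Fin 7 => v j.castSucc) i from rfl, G_neg]
  module

omit hφ in
theorem sandwich {R : Type*} [Ring R] {a p b q : R} (h1 : p = b ∨ p = -b) (h2 : a * b * a = q ∨ a * b * a = -q) :
    a * p * a = q ∨ a * p * a = -q := by
  rcases h1 with rfl | rfl <;> rcases h2 with h | h
  · exact Or.inl h
  · exact Or.inr h
  · exact Or.inr (by rw [mul_neg, neg_mul, h])
  · exact Or.inl (by rw [mul_neg, neg_mul, h, neg_neg])

omit hφ in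
theorem gen_conj (c d x : Fin 120) :
    rA c * rB d * rA x = rA (tC c (tC d x)) * (rB c * rA d) ∨
    rA c * rB d * rA x = -(rA (tC c (tC d x)) * (rB c * rA d)) := by
  have main : rA c * rB d * rA x * (rB d * rA c) = rA (tC c (tC d x)) ∨
      rA c * rB d * rA x * (rB d * rA c) = -rA (tC c (tC d x)) := by
    have h1 : rB d * rA x * rB d = rB (tC d x) ∨ rB d * rA x * rB d = -rB (tC d x) := by
      unfold rA rB
      rw [BAB (root_norm d)]
      rcases root_refl d x with h | h
      · exact Or.inr (by rw [funext h])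
      · exact Or.inl (by rw [show (fun i => root x i + -dot8 (root d) (root x) * root d i) = fun i => -root (tC d x) i
          from funext h, blockB_neg, neg_neg])
    have h2 : rA c * rB (tC d x) * rA c = rA (tC c (tC d x)) ∨
        rA c * rB (tC d x) * rA c = -rA (tC c (tC d x)) := by
      unfold rA rB
      rw [ABA (root_norm c)]
      rcases root_refl c (tC d x) with h | h
      · exact Or.inr (by rw [funext h])
      · exact Or.inl (by rw [show (fun i => root (tC d x) i + -dot8 (root c) (root (tC d x)) * root c i) =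
          fun i => -root (tC c (tC d x)) i from funext h, blockA_neg, neg_neg])
    have e : rA c * rB d * rA x * (rB d * rA c) = rA c * (rB d * rA x * rB d) * rA c := by
      simp only [mul_assoc]
    rw [e]
    exact sandwich h1 h2
  have e : rA c * rB d * rA x = rA c * rB d * rA x * (rB d * rA c) * (rB c * rA d) := by
    rw [mul_assoc (rA c * rB d * rA x), mul_assoc (rB d), ← mul_assoc (rA c), rA_rB, one_mul, rB_rA, mul_one]
  rcases main with h | h
  · exact Or.inl (by rw [e, h])
  · exact Or.inr (by rw [e, h, neg_mul])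

variable [Finite F]

theorem cover_action {p : Amb F} (hp : p ∈ cover φ) (x : Fin 120) :
    ∃ y, vec φ y = (p.2 : (Ix → F) ≃ₗ[F] (Ix → F)) (vec φ x) ∧
      ((p.1.1 : M8) * rA x = rA y * p.1.2 ∨ (p.1.1 : M8) * rA x = -(rA y * p.1.2)) := by
  have : Finite ((Ix → F) ≃ₗ[F] (Ix → F)) :=
    Finite.of_injective (fun e => (e : (Ix → F) → (Ix → F))) DFunLike.coe_injective
  rw [cover, ← Subgroup.mem_toSubmonoid, Subgroup.closure_toSubmonoid_of_finite] at hp
  induction hp using Submonoid.closure_induction generalizing x with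
  | mem p hp =>
    obtain ⟨c, d, rfl⟩ := hp
    exact ⟨tC c (tC d x), by simp only [gen, orth_mul_apply, R_vec φ hφ], gen_conj c d x⟩
  | one => exact ⟨x, rfl, Or.inl (by simp)⟩
  | mul p q _ _ hp hq =>
    obtain ⟨y, ey, h⟩ := hq x
    obtain ⟨z, ez, h'⟩ := hp y
    refine ⟨z, by rw [ez, ey, Prod.snd_mul, orth_mul_apply], ?_⟩
    simp only [Prod.fst_mul, Prod.snd_mul, Units.val_mul]
    rcases h with h | h <;> rcases h' with h' | h' <;>
      [left; right; right; left] <;>
      simp [mul_assoc, h, ← mul_assoc (p.1.1 : M8), h', mul_neg, neg_mul]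

omit hφ in
theorem blockA_eq_zero {v : Fin 8 → K} (h : blockA v = 0) : ∀ i, v i = 0 := by
  have hB : blockB v = (v 7 + v 7) • (1 : M8) := by
    rw [blockA, sub_eq_zero] at h
    rw [blockB, h]; module
  have hk : ∀ k : Fin 7, v k.castSucc = 0 := fun k => by
    have e := blockA_anti v (fun i => if i = k.castSucc then 1 else 0)
    rw [h, zero_mul, zero_add, hB] at e
    have hA : blockA (fun i => if i = k.castSucc then (1 : K) else 0) = gam k := by
      simp only [blockA, Fin.castSucc_inj, G_single]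
      rw [if_neg (fun e => absurd (congrArg Fin.val e) (by simp; omega)), zero_smul, sub_zero]
    rw [hA] at e
    have := congrFun (congrFun e 0) 0
    simpa [gam_col, dot8, eq_comm] using this
  have h7 : v 7 = 0 := by
    rw [blockA, show (fun i : Fin 7 => v i.castSucc) = fun _ => 0 from funext hk] at h
    simpa [G] using congrFun (congrFun h 0) 0
  intro i
  induction i using Fin.lastCases with
  | last => exact h7
  | cast k => exact hk k

omit hφ in
theorem blockA_zero : blockA (0 : Fin 8 → K) = 0 := by simp [blockA, G]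

omit hφ in
/-- `blockA` as a linear map -/
def blockL : (Fin 8 → K) →ₗ[K] M8 where
  toFun := blockA
  map_add' v w := by
    have h := blockA_add_smul v w 1
    simp only [one_mul, one_smul] at h
    exact h
  map_smul' c v := by
    have h := blockA_add_smul 0 v c
    rw [blockA_zero, zero_add] at h
    rw [RingHom.id_apply, ← h]
    congr 1
    funext i
    simp

omit hφ in
theorem blockA_sum (a : Fin 8 → K) (w : Fin 8 → Fin 8 → K) :
    blockA (fun i => ∑ j, a j * w j i) = ∑ j, a j • blockA (w j) := by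
  have e : (fun i => ∑ j, a j * w j i) = ∑ j, a j • w j := funext fun i => by simp [Finset.sum_apply]
  rw [e]
  exact (map_sum blockL _ _).trans (Finset.sum_congr rfl fun j _ => map_smul blockL _ _)

omit hφ in
theorem signs {u w : M8ˣ}
    (h : ∀ x, (u : M8) * rA x = rA x * w ∨ (u : M8) * rA x = -(rA x * w)) :
    ((u : M8) = 1 ∨ (u : M8) = -1) ∧ ((w : M8) = 1 ∨ (w : M8) = -1) := by
  have hs : ∀ x, ∃ s : K, (u : M8) * rA x = s • (rA x * w) ∧ (s = 1 ∨ s = -1) := fun x => by
    rcases h x with h' | h'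
    · exact ⟨1, by rw [one_smul, h'], Or.inl rfl⟩
    · exact ⟨-1, by rw [neg_smul, one_smul, h'], Or.inr rfl⟩
  choose s hs hs1 using hs
  have link : ∀ e : Fin 7, s (simp8 (edge8 e).1) = s (simp8 (edge8 e).2) := fun e => by
    obtain ⟨a, b, ha, hb, he⟩ := edge_sum e
    set i := simp8 (edge8 e).1
    set j := simp8 (edge8 e).2
    set t := s (edgeSum e)
    have lin : ∀ p q : K, blockA (fun k => p * root i k + q * root j k) = p • rA i + q • rA j := fun p q => by
      simp only [rA, blockA, G, add_smul, Finset.sum_add_distrib, Finset.smul_sum, smul_smul, smul_sub]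
      module
    have e0 : rA (edgeSum e) = a • rA i + b • rA j := by rw [← lin, rA, funext he]
    have e1 := hs (edgeSum e)
    rw [e0, mul_add, mul_smul_comm, mul_smul_comm, hs i, hs j, add_mul, smul_mul_assoc, smul_mul_assoc] at e1
    have e2 : (blockA (fun k => a * (s i - t) * root i k + b * (s j - t) * root j k)) * (w : M8) = 0 := by
      rw [lin, add_mul, smul_mul_assoc, smul_mul_assoc]
      linear_combination (norm := module) e1
    obtain ⟨p, q⟩ := edge_indep e _ _ (blockA_eq_zero ((Units.mul_left_eq_zero w).1 e2))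
    rw [sub_eq_zero.1 ((mul_eq_zero.1 p).resolve_left ha), sub_eq_zero.1 ((mul_eq_zero.1 q).resolve_left hb)]
  have l0 := link 0; have l1 := link 1; have l2 := link 2; have l3 := link 3
  have l4 := link 4; have l5 := link 5; have l6 := link 6
  simp only [edge8, Matrix.cons_val_zero, Matrix.cons_val_one, Matrix.cons_val] at l0 l1 l2 l3 l4 l5 l6
  set σ₀ := s (simp8 2)
  have hall : ∀ j : Fin 8, s (simp8 j) = σ₀ := by
    intro j; fin_cases j
    · exact l0
    · exact l1.trans l2.symm
    · rfl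
    · exact l2.symm
    · exact l3.symm.trans l2.symm
    · exact l4.symm.trans (l3.symm.trans l2.symm)
    · exact l5.symm.trans (l4.symm.trans (l3.symm.trans l2.symm))
    · exact l6.symm.trans (l5.symm.trans (l4.symm.trans (l3.symm.trans l2.symm)))
  have hunit : ∀ k : Fin 8, (u : M8) * blockA (fun i => if i = k then 1 else 0) =
      σ₀ • (blockA (fun i => if i = k then 1 else 0) * w) := fun k => by
    rw [show (fun i : Fin 8 => (if i = k then 1 else 0 : K)) = fun i => ∑ j, coef k j * root (simp8 j) i from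
      funext fun i => (simp8_span k i).symm, blockA_sum, Finset.mul_sum, Finset.sum_mul, Finset.smul_sum]
    refine Finset.sum_congr rfl fun j _ => ?_
    rw [mul_smul_comm, smul_mul_assoc, smul_comm σ₀, ← hall j]
    exact congrArg (coef k j • ·) (hs (simp8 j))
  have h7 : (u : M8) = σ₀ • (w : M8) := by
    have h := hunit 7
    have e : blockA (fun i : Fin 8 => if i = 7 then (1 : K) else 0) = -1 := by
      have : ∀ i : Fin 7, i.castSucc ≠ (7 : Fin 8) := by decide
      simp [blockA, G, this]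
    rw [e, mul_neg, mul_one, neg_mul, one_mul, smul_neg, neg_inj] at h
    exact h
  have hσ : σ₀ = 1 ∨ σ₀ = -1 := hs1 _
  have hcomm : ∀ k : Fin 7, (w : M8) * gam k = gam k * w := fun k => by
    have h := hunit k.castSucc
    have e : blockA (fun i : Fin 8 => if i = k.castSucc then (1 : K) else 0) = gam k := by
      simp only [blockA, Fin.castSucc_inj, G_single]
      rw [if_neg (fun e => absurd (congrArg Fin.val e) (by simp; omega)), zero_smul, sub_zero]
    rw [e, h7, smul_mul_assoc] at h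
    rcases hσ with hh | hh <;> simpa [hh] using h
  have hw := scalar_of_comm hcomm
  have hw1 : (w : M8) = 1 ∨ (w : M8) = -1 := by
    rcases (show ∀ x : K, x = 0 ∨ x = 1 ∨ x = -1 by decide) ((w : M8) 0 0) with hx | hx | hx
    · rw [hx, zero_smul] at hw; exact absurd hw w.ne_zero
    · exact Or.inl (by rwa [hx, one_smul] at hw)
    · exact Or.inr (by rwa [hx, neg_smul, one_smul] at hw)
  refine ⟨?_, hw1⟩
  rw [h7]
  rcases hσ with hh | hh <;> rcases hw1 with h' | h' <;> simp [hh, h']

theorem ker_sign {x : cover φ} (hx : proj φ x = 1) :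
    ((x.1.1.1 : M8) = 1 ∨ (x.1.1.1 : M8) = -1) ∧ ((x.1.1.2 : M8) = 1 ∨ (x.1.1.2 : M8) = -1) := by
  refine signs fun c => ?_
  obtain ⟨y, ey, h⟩ := cover_action φ hφ x.2 c
  rw [show x.1.2 = 1 from hx] at ey
  obtain rfl := vec_inj φ hφ (ey.trans rfl)
  exact h

/-- An element with scalar matrices projects to the identity. -/
theorem proj_eq_one {x : cover φ} (hu : (x.1.1.1 : M8) = 1 ∨ (x.1.1.1 : M8) = -1)
    (hw : (x.1.1.2 : M8) = 1 ∨ (x.1.1.2 : M8) = -1) : proj φ x = 1 := by
  classical
  have hfix : ∀ c, (x.1.2 : (Ix → F) ≃ₗ[F] (Ix → F)) (vec φ c) = vec φ c := fun c => by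
    obtain ⟨y, ey, h⟩ := cover_action φ hφ x.2 c
    have : rA c = rA y ∨ rA c = -rA y := by
      rcases hu with hu | hu <;> rcases hw with hw | hw <;> rcases h with h | h <;>
        rw [hu, hw] at h <;> simp only [one_mul, mul_one, neg_mul, mul_neg, neg_inj, neg_neg] at h
      all_goals first | exact Or.inl h | exact Or.inr h | exact Or.inl (neg_inj.1 h) |
        exact Or.inr (neg_eq_iff_eq_neg.1 h)
    have e : c = y := by
      refine root_inj c y (this.imp (fun h i => ?_) fun h i => ?_)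
      · have := blockA_eq_zero (v := fun i => root c i + -1 * root y i) (by
          rw [blockA_add_smul, show blockA (root c) = blockA (root y) from h]; module) i
        linear_combination this
      · have := blockA_eq_zero (v := fun i => root c i + 1 * root y i) (by
          rw [blockA_add_smul, show blockA (root c) = -blockA (root y) from h]; module) i
        linear_combination this
    rw [← ey, e]
  refine orth_ext fun v => ?_
  show (x.1.2 : (Ix → F) ≃ₗ[F] (Ix → F)) v = v
  have hb : ∀ s : Ix, (x.1.2 : (Ix → F) ≃ₗ[F] (Ix → F)) (Pi.single s 1) = Pi.single s 1 := fun s => by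
    obtain ⟨c, d, e⟩ : ∃ c d, (Pi.single s 1 : Ix → F) = vec φ c + vec φ d := by
      rcases s with i | i
      · obtain ⟨⟨c, d, h⟩, -⟩ := bas_split i
        refine ⟨c, d, funext fun k => ?_⟩
        rcases k with j | j
        · rw [Pi.add_apply, vec, vec, ← map_add, (h j).1]
          by_cases hj : j = i <;> simp [hj]
        · rw [Pi.add_apply, vec, vec, ← map_add, (h j).2]; simp
      · obtain ⟨-, c, d, h⟩ := bas_split i
        refine ⟨c, d, funext fun k => ?_⟩
        rcases k with j | j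
        · rw [Pi.add_apply, vec, vec, ← map_add, (h j).2]; simp
        · rw [Pi.add_apply, vec, vec, ← map_add, (h j).1]
          by_cases hj : j = i <;> simp [hj]
    rw [e, map_add, hfix, hfix]
  conv_lhs => rw [pi_eq_sum_univ' v]
  conv_rhs => rw [pi_eq_sum_univ' v]
  simp only [map_sum, map_smul, hb]

theorem proj_mem_commutator (x : cover φ) : proj φ x ∈ commutator (orth (qPlus 4 F)) := by
  have key : ∀ c d, p2 (lab c) (lab d) ≠ 0 → R φ c * R φ d ∈ commutator (orth (qPlus 4 F)) := by
    intro c d h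
    have hp : polar (qPlus 4 F) (vec φ c) (vec φ d) = 1 := by
      rw [polar_vec, (show ∀ z : ZMod 2, z ≠ 0 → z = 1 by decide) _ h, map_one]
    set e := tC c d
    have he : vec φ e = vec φ d - vec φ c := by
      have := R_vec φ hφ c d
      rw [R, refl_apply, q_vec, inv_one, one_mul, polar_comm, hp, one_smul] at this
      exact this.symm
    have hm : (R φ e : (Ix → F) ≃ₗ[F] (Ix → F)) (vec φ c) = vec φ d := by
      have hx : vec φ c - vec φ d = vec φ e := by
        rw [he]; funext k; simp only [Pi.sub_apply]; rw [← neg_sub, neg_eq φ hφ]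
      rw [R, refl_congr hx.symm]
      exact refl_sub_apply (by rw [q_vec, q_vec]) _
    have hd : R φ d = R φ e * R φ c * (R φ e)⁻¹ :=
      (refl_congr hm.symm (q_vec_ne φ d)).trans (conj_refl (R φ e) (vec φ c) (q_vec_ne φ c)).symm
    have heq : R φ c * R φ d = ⁅R φ c, R φ e⁆ := by
      rw [hd, commutatorElement_def, show (R φ c)⁻¹ = R φ c from refl_inv _ _]
      group
    rw [heq]
    exact Subgroup.commutator_mem_commutator (Subgroup.mem_top _) (Subgroup.mem_top _)
  have hall : ∀ c d, R φ c * R φ d ∈ commutator (orth (qPlus 4 F)) := by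
    intro c d
    rcases middle c d with h | ⟨e, h1, h2⟩
    · exact key c d h
    · have := mul_mem (key c e h1) (key e d h2)
      rwa [mul_assoc, ← mul_assoc (R φ e), show R φ e * R φ e = 1 from refl_mul_self _ _, one_mul] at this
  exact (Subgroup.closure_le (K := (commutator (orth (qPlus 4 F))).comap (MonoidHom.snd (M8ˣ × M8ˣ) _))).2
    (by rintro p ⟨c, d, rfl⟩; exact hall c d) x.2

theorem commutator_le_range : commutator (orth (qPlus 4 F)) ≤ (proj φ).range := by
  have pair : ∀ {a b : Ix → F} (ha : qPlus 4 F a ≠ 0) (hb : qPlus 4 F b ≠ 0),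
      refl (qPlus 4 F) a ha * refl (qPlus 4 F) b hb ∈ (proj φ).range := by
    intro a b ha hb
    obtain ⟨c, rfl⟩ := exists_vec φ hφ ha
    obtain ⟨d, rfl⟩ := exists_vec φ hφ hb
    exact ⟨⟨_, Subgroup.subset_closure ⟨c, d, rfl⟩⟩, rfl⟩
  have nons : ∀ {u w : Ix → F} (hu : qPlus 4 F u = 0) (hw : polar (qPlus 4 F) u w = 0), qPlus 4 F w ≠ 0 →
      siegel (qPlus 4 F) u w hu hw ∈ (proj φ).range := by
    intro u w hu hw hw0
    obtain ⟨hz, e⟩ := siegel_eq_refl_mul_refl hu hw hw0
    rw [e]; exact pair _ _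
  refine le_trans ChevOrtho.D4.gen_le ((Subgroup.closure_le _).2 ?_)
  rintro _ ⟨r, hr, t, rfl⟩
  rw [SetLike.mem_coe, ChevOrtho.D4.X, dif_pos (show r < 24 from hr)]
  set u : Ix → F := ChevOrtho.D4.bas (ChevOrtho.D4.fst r) with hu'
  set w : Ix → F := (((ChevOrtho.D4.sgn r : ℤ) : F) * t) • ChevOrtho.D4.bas (ChevOrtho.D4.snd r) with hw'
  obtain ⟨k, k1, k2, k3, k4⟩ := four_idx (ChevOrtho.D4.fst r).swap (ChevOrtho.D4.snd r).swap
  set z : Ix → F := ChevOrtho.D4.bas (Sum.inl k) + ChevOrtho.D4.bas (Sum.inr k) with hz'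
  have hQu : qPlus 4 F u = 0 := ChevOrtho.D4.q_bas _
  have huw : polar (qPlus 4 F) u w = 0 := ChevOrtho.D4.polar_smul_ne hr _
  have huz : polar (qPlus 4 F) u z = 0 := by
    rw [hu', hz', polar_add_right, ChevOrtho.D4.polar_bas_bas, ChevOrtho.D4.polar_bas_bas,
      if_neg (Ne.symm k1), if_neg (Ne.symm k2), add_zero]
  have hwz : polar (qPlus 4 F) w z = 0 := by
    rw [hw', hz', polar_smul_left, polar_add_right, ChevOrtho.D4.polar_bas_bas, ChevOrtho.D4.polar_bas_bas,
      if_neg (Ne.symm k3), if_neg (Ne.symm k4), add_zero, smul_zero]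
  have hQz : qPlus 4 F z = 1 := by
    rw [hz', QuadraticMap.map_add ⇑(qPlus 4 F), ChevOrtho.D4.q_bas, ChevOrtho.D4.q_bas,
      ChevOrtho.D4.polar_bas_bas]
    simp
  have hQw : qPlus 4 F w = 0 := by rw [hw', QuadraticMap.map_smul, ChevOrtho.D4.q_bas, smul_zero]
  have hQwz : qPlus 4 F (w + z) = 1 := by
    rw [QuadraticMap.map_add ⇑(qPlus 4 F), hQw, hQz, hwz]; simp
  have hsum : w + z + z = w := by
    rw [add_assoc, show z + z = 0 from funext fun i => by
      show z i + z i = 0
      linear_combination (z i) * two_zero φ hφ, add_zero]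
  have h1 : polar (qPlus 4 F) u (w + z) = 0 := by rw [polar_add_right, huw, huz, add_zero]
  rw [← siegel_congr rfl hsum hQu (by rw [hsum]; exact huw), ← siegel_mul hQu h1 huz]
  exact mul_mem (nons hQu h1 (by rw [hQwz]; exact one_ne_zero)) (nons hQu huz (by rw [hQz]; exact one_ne_zero))

omit hφ in
/-- the lift of a pair -/
noncomputable def lift (c d : Fin 120) : cover φ := ⟨gen φ c d, Subgroup.subset_closure ⟨c, d, rfl⟩⟩

/-- The kernel is generated by two commutators. -/
theorem exists_ker_gens : ∃ k₁ k₂ : cover φ, proj φ k₁ = 1 ∧ proj φ k₂ = 1 ∧ k₁ ∈ commutator (cover φ) ∧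
    k₂ ∈ commutator (cover φ) ∧ k₁ * k₁ = 1 ∧ k₂ * k₂ = 1 ∧ (proj φ).ker ≤ Subgroup.center (cover φ) ∧
    (proj φ).ker ≤ Subgroup.closure {k₁, k₂} ∧ Nat.card (proj φ).ker = 4 := by
  classical
  set g₁ := lift φ (frm 0) (frm 1)
  set g₂ := lift φ (frm 0) (frm 2)
  set g₃ := lift φ (frm 0) (frm 1) * lift φ (frm 2) (frm 3)
  set g₄ := lift φ (swp 0) (swp 1) * lift φ (swp 2) (swp 3)
  have e1 : (rA (frm 0) * rB (frm 1)) * (rA (frm 0) * rB (frm 2)) * (rA (frm 1) * rB (frm 0)) *
      (rA (frm 2) * rB (frm 0)) = -1 ∧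
      (rB (frm 0) * rA (frm 1)) * (rB (frm 0) * rA (frm 2)) * (rB (frm 1) * rA (frm 0)) *
      (rB (frm 2) * rA (frm 0)) = -1 := by decide +kernel
  have e2 : let gu := rA (frm 0) * rB (frm 1) * (rA (frm 2) * rB (frm 3))
      let gu' := rA (frm 3) * rB (frm 2) * (rA (frm 1) * rB (frm 0))
      let hu := rA (swp 0) * rB (swp 1) * (rA (swp 2) * rB (swp 3))
      let hu' := rA (swp 3) * rB (swp 2) * (rA (swp 1) * rB (swp 0))
      let gw := rB (frm 0) * rA (frm 1) * (rB (frm 2) * rA (frm 3))
      let gw' := rB (frm 3) * rA (frm 2) * (rB (frm 1) * rA (frm 0))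
      let hw := rB (swp 0) * rA (swp 1) * (rB (swp 2) * rA (swp 3))
      let hw' := rB (swp 3) * rA (swp 2) * (rB (swp 1) * rA (swp 0))
      (gu * hu * gu' * hu' = 1 ∧ gw * hw * gw' * hw' = -1) ∨
        (gu * hu * gu' * hu' = -1 ∧ gw * hw * gw' * hw' = 1) := by decide +kernel
  set k₁ := ⁅g₁, g₂⁆
  set k₂ := ⁅g₃, g₄⁆
  have u1 : (k₁.1.1.1 : M8) = -1 := e1.1
  have w1 : (k₁.1.1.2 : M8) = -1 := e1.2
  have uw2 : ((k₂.1.1.1 : M8) = 1 ∧ (k₂.1.1.2 : M8) = -1) ∨ ((k₂.1.1.1 : M8) = -1 ∧ (k₂.1.1.2 : M8) = 1) := e2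
  have m1 : proj φ k₁ = 1 := proj_eq_one φ hφ (Or.inr u1) (Or.inr w1)
  have m2 : proj φ k₂ = 1 := proj_eq_one φ hφ (uw2.elim (fun h => Or.inl h.1) fun h => Or.inr h.1)
    (uw2.elim (fun h => Or.inr h.2) fun h => Or.inl h.2)
  have ext' : ∀ {x y : cover φ}, proj φ x = 1 → proj φ y = 1 → (x.1.1.1 : M8) = y.1.1.1 →
      (x.1.1.2 : M8) = y.1.1.2 → x = y := fun {x y} hx hy h1 h2 =>
    Subtype.ext (Prod.ext (Prod.ext (Units.ext h1) (Units.ext h2)) (hx.trans hy.symm))
  have sq : ∀ x : cover φ, proj φ x = 1 → x * x = 1 := fun x hx => by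
    obtain ⟨h1, h2⟩ := ker_sign φ hφ hx
    refine ext' (by rw [map_mul, hx, one_mul]) (map_one _) ?_ ?_
    · show (x.1.1.1 : M8) * x.1.1.1 = 1
      rcases h1 with h | h <;> simp [h]
    · show (x.1.1.2 : M8) * x.1.1.2 = 1
      rcases h2 with h | h <;> simp [h]
  have hone : (1 : M8) ≠ -1 := fun h => by
    have := congrFun (congrFun h 0) 0
    simp at this
    exact absurd this (by decide)
  refine ⟨k₁, k₂, m1, m2, Subgroup.commutator_mem_commutator (Subgroup.mem_top _) (Subgroup.mem_top _),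
    Subgroup.commutator_mem_commutator (Subgroup.mem_top _) (Subgroup.mem_top _), sq _ m1, sq _ m2, ?_, ?_, ?_⟩
  · intro x hx
    rw [Subgroup.mem_center_iff]
    intro y
    obtain ⟨h1, h2⟩ := ker_sign φ hφ hx
    refine Subtype.ext (Prod.ext (Prod.ext (Units.ext ?_) (Units.ext ?_)) ?_)
    · show (y.1.1.1 : M8) * x.1.1.1 = x.1.1.1 * y.1.1.1
      rcases h1 with h | h <;> simp [h]
    · show (y.1.1.2 : M8) * x.1.1.2 = x.1.1.2 * y.1.1.2
      rcases h2 with h | h <;> simp [h]
    · show y.1.2 * x.1.2 = x.1.2 * y.1.2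
      rw [show x.1.2 = 1 from hx, mul_one, one_mul]
  · intro x hx
    have c1 : k₁ ∈ Subgroup.closure {k₁, k₂} := Subgroup.subset_closure (Or.inl rfl)
    have c2 : k₂ ∈ Subgroup.closure {k₁, k₂} := Subgroup.subset_closure (Or.inr rfl)
    have m12 : proj φ (k₁ * k₂) = 1 := by rw [map_mul, m1, m2, one_mul]
    obtain ⟨h1, h2⟩ := ker_sign φ hφ hx
    have hu12 : ((k₁ * k₂).1.1.1 : M8) = -(k₂.1.1.1 : M8) := by
      show (k₁.1.1.1 : M8) * k₂.1.1.1 = _
      rw [u1, neg_one_mul]
    have hw12 : ((k₁ * k₂).1.1.2 : M8) = -(k₂.1.1.2 : M8) := by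
      show (k₁.1.1.2 : M8) * k₂.1.1.2 = _
      rw [w1, neg_one_mul]
    rcases h1 with h1 | h1 <;> rcases h2 with h2 | h2
    · rw [ext' hx (map_one _) h1 h2]; exact one_mem _
    · rcases uw2 with ⟨a, b⟩ | ⟨a, b⟩
      · rw [ext' hx m2 (h1.trans a.symm) (h2.trans b.symm)]; exact c2
      · have e := ext' hx m12 (h1.trans (by rw [hu12, a, neg_neg])) (h2.trans (by rw [hw12, b]))
        rw [e]; exact mul_mem c1 c2
    · rcases uw2 with ⟨a, b⟩ | ⟨a, b⟩
      · have e := ext' hx m12 (h1.trans (by rw [hu12, a])) (h2.trans (by rw [hw12, b, neg_neg]))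
        rw [e]; exact mul_mem c1 c2
      · rw [ext' hx m2 (h1.trans a.symm) (h2.trans b.symm)]; exact c2
    · rw [ext' hx m1 (h1.trans u1.symm) (h2.trans w1.symm)]; exact c1
  · let f : (proj φ).ker → Bool × Bool := fun x =>
      (decide ((x.1.1.1.1 : M8) = 1), decide ((x.1.1.1.2 : M8) = 1))
    have hf : Function.Bijective f := by
      constructor
      · intro x y h
        obtain ⟨a1, a2⟩ := ker_sign φ hφ x.2
        obtain ⟨b1, b2⟩ := ker_sign φ hφ y.2
        simp only [f, Prod.mk.injEq, decide_eq_decide] at h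
        refine Subtype.ext (ext' x.2 y.2 ?_ ?_)
        · rcases a1 with a | a <;> rcases b1 with b | b <;> rw [a, b] <;>
            first | rfl | exact absurd (h.1.1 a) (by rw [b]; exact hone.symm) |
              exact absurd (h.1.2 b) (by rw [a]; exact hone.symm)
        · rcases a2 with a | a <;> rcases b2 with b | b <;> rw [a, b] <;>
            first | rfl | exact absurd (h.2.1 a) (by rw [b]; exact hone.symm) |
              exact absurd (h.2.2 b) (by rw [a]; exact hone.symm)
      · have v0 : f ⟨1, one_mem _⟩ = (true, true) := by simp [f]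
        have dec : ∀ {u : M8}, u = -1 → decide (u = 1) = false := fun {u} h =>
          decide_eq_false (by rw [h]; exact hone.symm)
        have dec' : ∀ {u : M8}, u = 1 → decide (u = 1) = true := fun {u} h => decide_eq_true h
        have v1 : f ⟨k₁, m1⟩ = (false, false) := Prod.ext (dec (u := (k₁.1.1.1 : M8)) u1) (dec (u := (k₁.1.1.2 : M8)) w1)
        have hu12 : ((k₁ * k₂).1.1.1 : M8) = -(k₂.1.1.1 : M8) := by
          show (k₁.1.1.1 : M8) * k₂.1.1.1 = _
          rw [u1, neg_one_mul]
        have hw12 : ((k₁ * k₂).1.1.2 : M8) = -(k₂.1.1.2 : M8) := by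
          show (k₁.1.1.2 : M8) * k₂.1.1.2 = _
          rw [w1, neg_one_mul]
        have m12 : proj φ (k₁ * k₂) = 1 := by rw [map_mul, m1, m2, one_mul]
        have fv : ∀ (z : cover φ) (m : proj φ z = 1) (p q : Bool), decide ((z.1.1.1 : M8) = 1) = p →
            decide ((z.1.1.2 : M8) = 1) = q → f ⟨z, m⟩ = (p, q) := fun _ _ _ _ h h' => Prod.ext h h'
        rintro ⟨p, q⟩
        rcases p <;> rcases q
        · exact ⟨_, v1⟩
        · rcases uw2 with ⟨a, b⟩ | ⟨a, b⟩
          · have e1 : ((k₁ * k₂).1.1.1 : M8) = -1 := by rw [hu12, a]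
            have e2 : ((k₁ * k₂).1.1.2 : M8) = 1 := by rw [hw12, b, neg_neg]
            exact ⟨_, fv _ m12 _ _ (dec e1) (dec' e2)⟩
          · exact ⟨_, fv _ m2 _ _ (dec a) (dec' b)⟩
        · rcases uw2 with ⟨a, b⟩ | ⟨a, b⟩
          · exact ⟨_, fv _ m2 _ _ (dec' a) (dec b)⟩
          · have e1 : ((k₁ * k₂).1.1.1 : M8) = 1 := by rw [hu12, a, neg_neg]
            have e2 : ((k₁ * k₂).1.1.2 : M8) = -1 := by rw [hw12, b]
            exact ⟨_, fv _ m12 _ _ (dec' e1) (dec e2)⟩
        · exact ⟨_, v0⟩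
    rw [Nat.card_eq_of_bijective f hf]
    simp

end CfsgLib.OrthEightTwo
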