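import Cfsg.Agent.Lib.SpSixTwo.Clifford

/-!
The roots of type `E₈` over three elements, their lines indexed by the nonsingular vectors of a hyperbolic
space of dimension eight over two elements, and the even Clifford elements of their pairs.
-/

set_option autoImplicit false

namespace CfsgLib.OrthEightTwo

open CfsgLib.SpSixTwo

/-- The upper block of the Clifford image of a vector. -/
def blockA (v : Fin 8 → K) : M8 := G (fun i => v i.castSucc) - v 7 • 1

/-- The lower block. -/
def blockB (v : Fin 8 → K) : M8 := G (fun i => v i.castSucc) + v 7 • 1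

/-- The bilinear form. -/
def dot8 (v w : Fin 8 → K) : K := ∑ i, v i * w i

theorem dot8_split (v w : Fin 8 → K) :
    dot8 v w = dotK (fun i => v i.castSucc) (fun i => w i.castSucc) + v 7 * w 7 :=
  Fin.sum_univ_castSucc (fun i => v i * w i)

theorem three : (3 : K) = 0 := by decide

theorem blockA_anti (v w : Fin 8 → K) :
    blockA v * blockB w + blockA w * blockB v = dot8 v w • (1 : M8) := by
  have h := G_anti (fun i => v i.castSucc) (fun i => w i.castSucc)
  simp only [blockA, blockB, sub_mul, mul_add, smul_mul_assoc, mul_smul_comm, one_mul, mul_one, smul_smul]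
  rw [dot8_split, add_smul, ← h]
  match_scalars <;> first
    | linear_combination (-(v 7 * w 7)) * three
    | linear_combination (v 7 * w 7) * three
    | ring

theorem blockB_anti (v w : Fin 8 → K) :
    blockB v * blockA w + blockB w * blockA v = dot8 v w • (1 : M8) := by
  have h := G_anti (fun i => v i.castSucc) (fun i => w i.castSucc)
  simp only [blockA, blockB, mul_sub, add_mul, smul_mul_assoc, mul_smul_comm, one_mul, mul_one, smul_smul]
  rw [dot8_split, add_smul, ← h]
  match_scalars <;> first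
    | linear_combination (-(v 7 * w 7)) * three
    | linear_combination (v 7 * w 7) * three
    | ring

theorem blockA_add_smul (v w : Fin 8 → K) (c : K) :
    blockA (fun i => v i + c * w i) = blockA v + c • blockA w := by
  simp only [blockA, G_add_smul]
  module

theorem blockB_add_smul (v w : Fin 8 → K) (c : K) :
    blockB (fun i => v i + c * w i) = blockB v + c • blockB w := by
  simp only [blockB, G_add_smul]
  module

theorem AB_eq_one {v : Fin 8 → K} (h : dot8 v v = -1) : blockA v * blockB v = 1 := by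
  have e := blockA_anti v v
  rw [h] at e
  have h3 : ∀ a b : K, a + a = -1 * b → a = b := by decide
  ext a b
  have := congrFun (congrFun e a) b
  simp only [Matrix.add_apply, Matrix.smul_apply, smul_eq_mul] at this
  exact h3 _ _ this

theorem BA_eq_one {v : Fin 8 → K} (h : dot8 v v = -1) : blockB v * blockA v = 1 := by
  have e := blockB_anti v v
  rw [h] at e
  have h3 : ∀ a b : K, a + a = -1 * b → a = b := by decide
  ext a b
  have := congrFun (congrFun e a) b
  simp only [Matrix.add_apply, Matrix.smul_apply, smul_eq_mul] at this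
  exact h3 _ _ this

theorem ABA {a : Fin 8 → K} (h : dot8 a a = -1) (c : Fin 8 → K) :
    blockA a * blockB c * blockA a = -blockA (fun i => c i + -dot8 a c * a i) := by
  rw [eq_sub_of_add_eq (blockA_anti a c), sub_mul, smul_mul_assoc, one_mul, mul_assoc, BA_eq_one h, mul_one,
    blockA_add_smul, neg_smul]
  abel

theorem BAB {a : Fin 8 → K} (h : dot8 a a = -1) (c : Fin 8 → K) :
    blockB a * blockA c * blockB a = -blockB (fun i => c i + -dot8 a c * a i) := by
  rw [eq_sub_of_add_eq (blockB_anti a c), sub_mul, smul_mul_assoc, one_mul, mul_assoc, AB_eq_one h, mul_one,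
    blockB_add_smul, neg_smul]
  abel

/-- The codes of the nonsingular vectors. -/
def labTab : List ℕ :=
  [46, 38, 107, 99, 89, 81, 122, 114, 61, 53, 31, 23, 76, 68, 77, 69, 127, 119, 92, 84, 27, 19, 57, 49, 106, 98, 58, 50, 25, 17, 94, 86, 124, 116, 47, 39, 43, 35, 108, 100, 78, 70, 29, 21, 79, 71, 109, 101, 62, 54, 42, 34, 121, 113, 91, 83, 136, 211, 241, 162, 182, 229, 199, 156, 149, 198, 228, 191, 163, 248, 218, 137, 167, 244, 214, 141, 145, 202, 232, 187, 178, 233, 203, 152, 140, 223, 253, 166, 226, 177, 147, 200, 212, 143, 173, 254, 247, 172, 142, 221, 201, 154, 184, 227, 197, 158, 188, 239, 251, 168, 138, 209, 216, 139, 169, 242, 238, 181, 151, 196]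

/-- The roots, in base three. -/
def rootTab : List ℕ :=
  [4, 7, 10, 19, 28, 55, 82, 163, 244, 487, 730, 1459, 2188, 4375, 12, 21, 30, 57, 84, 165, 246, 489, 732, 1461, 2190, 4377, 36, 63, 90, 171, 252, 495, 738, 1467, 2196, 4383, 108, 189, 270, 513, 756, 1485, 2214, 4401, 324, 567, 810, 1539, 2268, 4455, 972, 1701, 2430, 4617, 2916, 5103, 6560, 3644, 4130, 5588, 4292, 5750, 6236, 3320, 4346, 5804, 6290, 3374, 6452, 3536, 4022, 5480, 4364, 5822, 6308, 3392, 6470, 3554, 4040, 5498, 6524, 3608, 4094, 5552, 4256, 5714, 6200, 3284, 4370, 5828, 6314, 3398, 6476, 3560, 4046, 5504, 6530, 3614, 4100, 5558, 4262, 5720, 6206, 3290, 6548, 3632, 4118, 5576, 4280, 5738, 6224, 3308, 4334, 5792, 6278, 3362, 6440, 3524, 4010, 5468]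

/-- The root with a given index. -/
def root (c : Fin 120) (i : Fin 8) : K := ((rootTab.getD c.val 0 / 3 ^ i.val % 3 : ℕ) : K)

/-- The vector with a given code. -/
def bitsV (n : ℕ) : Fin 4 ⊕ Fin 4 → ZMod 2
  | Sum.inl i => ((n / 2 ^ i.val : ℕ) : ZMod 2)
  | Sum.inr i => ((n / 2 ^ (i.val + 4) : ℕ) : ZMod 2)

/-- The code of a vector. -/
def code (v : Fin 4 ⊕ Fin 4 → ZMod 2) : ℕ :=
  (v (Sum.inl 0)).val + 2 * (v (Sum.inl 1)).val + 4 * (v (Sum.inl 2)).val + 8 * (v (Sum.inl 3)).val +
    16 * (v (Sum.inr 0)).val + 32 * (v (Sum.inr 1)).val + 64 * (v (Sum.inr 2)).val + 128 * (v (Sum.inr 3)).val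

theorem code_aux : ∀ a b c d e f g h : ZMod 2, ∀ i : Fin 4,
    bitsV (a.val + 2 * b.val + 4 * c.val + 8 * d.val + 16 * e.val + 32 * f.val + 64 * g.val + 128 * h.val)
      (Sum.inl i) = ![a, b, c, d] i ∧
    bitsV (a.val + 2 * b.val + 4 * c.val + 8 * d.val + 16 * e.val + 32 * f.val + 64 * g.val + 128 * h.val)
      (Sum.inr i) = ![e, f, g, h] i := by
  decide +kernel

theorem bitsV_code (v : Fin 4 ⊕ Fin 4 → ZMod 2) : bitsV (code v) = v := by
  funext k
  rcases k with i | i
  · refine ((code_aux _ _ _ _ _ _ _ _ i).1).trans ?_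
    fin_cases i <;> rfl
  · refine ((code_aux _ _ _ _ _ _ _ _ i).2).trans ?_
    fin_cases i <;> rfl

theorem code_lt (v : Fin 4 ⊕ Fin 4 → ZMod 2) : code v < 256 := by
  have h : ∀ x : ZMod 2, x.val ≤ 1 := by decide
  have := h (v (Sum.inl 0)); have := h (v (Sum.inl 1)); have := h (v (Sum.inl 2)); have := h (v (Sum.inl 3))
  have := h (v (Sum.inr 0)); have := h (v (Sum.inr 1)); have := h (v (Sum.inr 2)); have := h (v (Sum.inr 3))
  unfold code; omega

/-- The nonsingular vector with a given index. -/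
def lab (c : Fin 120) : Fin 4 ⊕ Fin 4 → ZMod 2 := bitsV (labTab.getD c.val 0)

/-- The quadratic form. -/
def q2 (v : Fin 4 ⊕ Fin 4 → ZMod 2) : ZMod 2 := ∑ i : Fin 4, v (Sum.inl i) * v (Sum.inr i)

/-- Its polar form. -/
def p2 (v w : Fin 4 ⊕ Fin 4 → ZMod 2) : ZMod 2 :=
  ∑ i : Fin 4, (v (Sum.inl i) * w (Sum.inr i) + v (Sum.inr i) * w (Sum.inl i))

/-- The digit of a code in base three. -/
def dig (n i : ℕ) : ℕ := n / 3 ^ i % 3

/-- The bilinear form on codes. -/
def dotN (a b : ℕ) : ℕ :=
  dig a 0 * dig b 0 + dig a 1 * dig b 1 + dig a 2 * dig b 2 + dig a 3 * dig b 3 + dig a 4 * dig b 4 +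
    dig a 5 * dig b 5 + dig a 6 * dig b 6 + dig a 7 * dig b 7

/-- The polar form on codes. -/
def polN (a b : ℕ) : ℕ :=
  (a / 1 * (b / 16) + a / 16 * (b / 1) + (a / 2 * (b / 32) + a / 32 * (b / 2)) +
    (a / 4 * (b / 64) + a / 64 * (b / 4)) + (a / 8 * (b / 128) + a / 128 * (b / 8))) % 2

theorem root_eq (c : Fin 120) (i : Fin 8) : root c i = (dig (rootTab.getD c.val 0) i.val : K) := rfl

theorem dot8_root (c d : Fin 120) :
    dot8 (root c) (root d) = (dotN (rootTab.getD c.val 0) (rootTab.getD d.val 0) : K) := by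
  simp [dot8, Fin.sum_univ_eight, root_eq, dotN]

theorem p2_bits (a b : ℕ) : p2 (bitsV a) (bitsV b) = (polN a b : ZMod 2) := by
  simp [p2, Fin.sum_univ_four, bitsV, polN, ZMod.natCast_mod]

/-- The reflection on indices. -/
def tC (c d : Fin 120) : Fin 120 :=
  if polN (labTab.getD c.val 0) (labTab.getD d.val 0) = 0 then d
  else Fin.ofNat 120 (labTab.idxOf (Nat.xor (labTab.getD c.val 0) (labTab.getD d.val 0)))

/-- The simple roots. -/
def simp8 : Fin 8 → Fin 120 := ![119, 0, 1, 15, 27, 37, 45, 51]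

/-- The frame. -/
def frm : Fin 8 → Fin 120 := ![0, 1, 26, 27, 44, 45, 54, 55]

/-- The exchange of the halves of the frame. -/
def swp : Fin 4 → Fin 120 := ![7, 21, 33, 43]

/-- The coordinates of the unit vectors in the simple roots. -/
def coef : Fin 8 → Fin 8 → K :=
  ![![0, 2, 2, 0, 0, 0, 0, 0], ![0, 2, 1, 0, 0, 0, 0, 0], ![0, 2, 1, 2, 0, 0, 0, 0], ![0, 2, 1, 2, 2, 0, 0, 0], ![0, 2, 1, 2, 2, 2, 0, 0], ![0, 2, 1, 2, 2, 2, 2, 0], ![0, 2, 1, 2, 2, 2, 2, 2], ![2, 1, 1, 1, 2, 0, 1, 2]]

/-- The edges of the diagram, with the roots that are their sums. -/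
def edge8 : Fin 7 → Fin 8 × Fin 8 :=
  ![(0, 2), (1, 3), (2, 3), (3, 4), (4, 5), (5, 6), (6, 7)]

/-- The sums along the edges. -/
def edgeSum : Fin 7 → Fin 120 := ![88, 2, 3, 17, 29, 39, 47]

end CfsgLib.OrthEightTwo
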